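import Mathlib.GroupTheory.Abelianization.Defs
import Mathlib.GroupTheory.Transfer
import Mathlib.LinearAlgebra.FreeModule.Finite.CardQuotient
import Mathlib.LinearAlgebra.Matrix.Adjugate
import Mathlib.Algebra.MonoidAlgebra.Basic

/-!
Determinant argument for the principal ideal theorem: a derivation of a finite group `G` into a
module over the group ring of its abelianization, refining the augmentation derivation, is killed
by the norm element.
-/

open scoped MonoidAlgebra

namespace Cfsg.Agent.H34.PIT

variable {G : Type*} [Group G] [Finite G]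

local notation "Γ" => Abelianization G
local notation "π" => (Abelianization.of : G →* Abelianization G)

/-- The norm element of the group ring of the abelianization. -/
noncomputable def normElt (G : Type*) [Group G] [Fintype (Abelianization G)] :
    MonoidAlgebra ℤ (Abelianization G) := ∑ σ, MonoidAlgebra.of ℤ (Abelianization G) σ

/-- The augmentation. -/
noncomputable def aug (G : Type*) [Group G] : MonoidAlgebra ℤ (Abelianization G) →+* ℤ :=
  (MonoidAlgebra.lift ℤ ℤ (Abelianization G) 1).toRingHom

theorem norm_smul_derivation {M : Type*} [AddCommGroup M] [Module (MonoidAlgebra ℤ Γ) M]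
    [Fintype Γ] (D : G → M) (hD : ∀ x y, D (x * y) = D x + MonoidAlgebra.of ℤ Γ (π x) • D y)
    (f : M →ₗ[MonoidAlgebra ℤ Γ] MonoidAlgebra ℤ Γ)
    (hf : ∀ x, f (D x) = MonoidAlgebra.of ℤ Γ (π x) - 1) (x : G) : normElt G • D x = 0 := by
  classical
  have : Fintype G := Fintype.ofFinite G
  let R := MonoidAlgebra ℤ Γ
  let u : Γ → R := fun σ => MonoidAlgebra.of ℤ Γ σ
  have hu : ∀ σ, aug G (u σ) = 1 := fun σ => by simp [aug, u]
  have hu1 : u 1 = 1 := map_one _
  let L : (G → R) →ₗ[R] M := Fintype.linearCombination R D
  let E : (G → R) →+ (G → ℤ) := (aug G).toAddMonoidHom.compLeft G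
  let K : AddSubgroup (G → ℤ) := L.toAddMonoidHom.ker.map E
  -- the relation of a product
  have hrel : ∀ x y : G,
      (Pi.single x 1 + Pi.single y 1 - Pi.single (x * y) 1 : G → ℤ) ∈ K := by
    intro x y
    refine ⟨Pi.single x (1 : R) + Pi.single y (u (π x)) - Pi.single (x * y) (1 : R), ?_, ?_⟩
    · simp [L, Fintype.linearCombination_apply_single, map_add, map_sub, hD, u]
    · funext z
      simp only [E, AddMonoidHom.compLeft_apply, Function.comp_apply, Pi.add_apply, Pi.sub_apply,
        RingHom.toAddMonoidHom_eq_coe, AddMonoidHom.coe_coe, map_add, map_sub,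
        Pi.apply_single (fun _ => (aug G : R → ℤ)) (fun _ => map_zero _), hu, map_one]
  -- the quotient by the relations factors through the abelianization
  let χ : G →* Multiplicative ((G → ℤ) ⧸ K) := MonoidHom.mk'
    (fun x => Multiplicative.ofAdd (QuotientAddGroup.mk (Pi.single x 1))) fun x y => by
      rw [← ofAdd_add, ← QuotientAddGroup.mk_add]
      refine congrArg Multiplicative.ofAdd ((QuotientAddGroup.eq).mpr ?_)
      have := hrel x y
      convert this using 1
      abel
  let χ' : Γ →* Multiplicative ((G → ℤ) ⧸ K) := Abelianization.lift χ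
  let ψ : (G → ℤ) →ₗ[ℤ] Additive Γ := Fintype.linearCombination ℤ fun x => Additive.ofMul (π x)
  have hker : LinearMap.ker ψ ≤ AddSubgroup.toIntSubmodule K := by
    intro g hg
    have heq : (MonoidHom.toAdditiveLeft χ').toIntLinearMap.comp ψ =
        (QuotientAddGroup.mk' K).toIntLinearMap := by
      refine LinearMap.pi_ext' fun z => LinearMap.ext_ring ?_
      simp [ψ, Fintype.linearCombination_apply_single, χ', χ]
    have := congrArg (fun l : (G → ℤ) →ₗ[ℤ] _ => l g) heq
    simp only [LinearMap.coe_comp, Function.comp_apply, LinearMap.mem_ker.mp hg, map_zero] at this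
    exact (QuotientAddGroup.eq_zero_iff g).mp this.symm
  have hsurj : Function.Surjective ψ := by
    intro σ
    obtain ⟨z, hz⟩ := QuotientGroup.mk_surjective (Additive.toMul σ)
    exact ⟨Pi.single z 1, by rw [Fintype.linearCombination_apply_single, one_smul]; exact hz⟩
  -- a basis of the kernel
  let N : AddSubgroup (G → ℤ) := ψ.toAddMonoidHom.ker
  have hindex : N.index = Fintype.card Γ := by
    rw [AddSubgroup.index_ker, AddMonoidHom.range_eq_top.mpr hsurj]
    simpa using Nat.card_congr Additive.toMul
  have hN0 : N.index ≠ 0 := by rw [hindex]; exact Fintype.card_ne_zero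
  obtain ⟨r, bN⟩ := Submodule.basisOfPid (Pi.basisFun ℤ G) N.toIntSubmodule
  have hr : r = Fintype.card G := by
    have h1 : Module.finrank ℤ N.toIntSubmodule = r := by simp [Module.finrank_eq_card_basis bN]
    have h2 : Module.finrank ℤ N.toIntSubmodule = Module.finrank ℤ (G → ℤ) := by
      refine le_antisymm (Submodule.finrank_le _) ?_
      refine LinearMap.finrank_le_finrank_of_injective (f := LinearMap.codRestrict N.toIntSubmodule
        ((N.index : ℤ) • (LinearMap.id : (G → ℤ) →ₗ[ℤ] (G → ℤ))) fun v => ?_) ?_
      · show (N.index : ℤ) • v ∈ N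
        rw [natCast_zsmul]
        exact AddSubgroup.nsmul_index_mem N v
      · intro v w hvw
        exact smul_right_injective (G → ℤ) (Int.natCast_ne_zero.mpr hN0) (congrArg Subtype.val hvw)
    rw [← h1, h2, Module.finrank_fintype_fun_eq_card]
  let bN' := bN.reindex ((finCongr hr).trans (Fintype.equivFin G).symm)
  have hc : ∀ i, ∃ c : G → R, L c = 0 ∧ E c = (bN' i : G → ℤ) := fun i => by
    obtain ⟨c, hc, hc'⟩ := hker (show (bN' i : G → ℤ) ∈ LinearMap.ker ψ from (bN' i).2)
    exact ⟨c, hc, hc'⟩
  choose c hc0 hcE using hc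
  let μ : Matrix G G R := Matrix.of fun i j => c i j
  set d := μ.det with hd
  have hkill : ∀ k, d • D k = 0 := by
    intro k
    have h1 : ∀ j, ∑ i, μ.adjugate k i * μ i j = if k = j then d else 0 := fun j => by
      have := congrFun (congrFun μ.adjugate_mul k) j
      simpa [Matrix.mul_apply, Matrix.smul_apply, Matrix.one_apply] using this
    calc d • D k = ∑ j, (∑ i, μ.adjugate k i * μ i j) • D j := by simp [h1, ite_smul]
      _ = ∑ i, μ.adjugate k i • L (c i) := by
        refine (Finset.sum_congr rfl fun j _ => Finset.sum_smul).trans (Finset.sum_comm.trans ?_)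
        refine Finset.sum_congr rfl fun i _ => ?_
        rw [show L (c i) = ∑ j, c i j • D j from Fintype.linearCombination_apply _ _ _, Finset.smul_sum]
        exact Finset.sum_congr rfl fun j _ => mul_smul _ _ _
      _ = 0 := by simp [hc0]
  have haug : (aug G d).natAbs = Fintype.card Γ := by
    rw [← hindex, AddSubgroup.index_eq_natAbs_det (Pi.basisFun ℤ G) N bN', hd, RingHom.map_det,
      Module.Basis.det_apply, ← Matrix.det_transpose]
    congr 2
    ext i j
    simp only [Matrix.transpose_apply, RingHom.mapMatrix_apply, Matrix.map_apply, μ,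
      Matrix.of_apply, Module.Basis.toMatrix_apply, Pi.basisFun_repr]
    exact congrFun (hcE j) i
  -- `d` is invariant under translation
  have hfix : ∀ σ : Γ, d * u σ = d := by
    intro σ
    obtain ⟨z, rfl⟩ := QuotientGroup.mk_surjective σ
    have := congrArg f (hkill z)
    rw [map_smul, hf, map_zero, smul_eq_mul, mul_sub, mul_one, sub_eq_zero] at this
    exact this
  have hconst : ∀ σ : Γ, d.coeff σ = d.coeff 1 := by
    intro σ
    have := congrArg (fun z : R => z.coeff σ) (hfix σ)
    simp only [u, MonoidAlgebra.of_apply] at this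
    rw [MonoidAlgebra.coeff_mul_single_eq_coeff_mul 1 (fun m' _ => by simp)] at this
    simpa using this.symm
  have hd2 : d = d.coeff 1 • normElt G := by
    apply MonoidAlgebra.ext
    ext σ
    simp [normElt, hconst σ, MonoidAlgebra.coeff_smul, MonoidAlgebra.coeff_sum, MonoidAlgebra.coeff_single,
      Finsupp.single_apply, -zsmul_eq_mul]
  have hc1 : (d.coeff 1).natAbs = 1 := by
    rw [hd2, map_zsmul, smul_eq_mul, Int.natAbs_mul] at haug
    have h : aug G (normElt G) = (Fintype.card Γ : ℤ) := by simp [normElt, aug]
    rw [h, Int.natAbs_natCast] at haug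
    have := Fintype.card_pos (α := Γ)
    nlinarith [haug]
  have := hkill x
  rw [hd2, smul_assoc] at this
  rcases Int.natAbs_eq_iff.mp hc1 with h | h <;> rw [h] at this <;> simpa using this

end Cfsg.Agent.H34.PIT
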