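import Cfsg.Agent.H34.PIT.Det

/-!
The principal ideal theorem: the transfer into the abelianized derived subgroup is trivial.
-/

open scoped MonoidAlgebra Pointwise

namespace Cfsg.Agent.H34.PIT

variable (G : Type*) [Group G]

/-- The abelianized derived subgroup, written additively. -/
abbrev Derived := Additive (Abelianization ↥(commutator G))

/-- Functions from the abelianization to the abelianized derived subgroup. -/
def Fun := Abelianization G → Derived G

noncomputable instance : AddCommGroup (Fun G) :=
  inferInstanceAs (AddCommGroup (Abelianization G → Derived G))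

/-- Translation on functions. -/
noncomputable def translate : Abelianization G →* AddMonoid.End (Fun G) where
  toFun σ :=
    { toFun := fun f q => f (σ⁻¹ * q)
      map_zero' := rfl
      map_add' := fun _ _ => rfl }
  map_one' := by
    ext f
    funext q
    exact congrArg f (by simp)
  map_mul' σ τ := by
    ext f
    funext q
    exact congrArg f (by simp [mul_assoc, mul_comm])

noncomputable instance : Module (MonoidAlgebra ℤ (Abelianization G)) (Fun G) :=
  Module.compHom (Fun G)
    (MonoidAlgebra.lift ℤ (AddMonoid.End (Fun G)) (Abelianization G) (translate G)).toRingHom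

theorem of_smul_apply (σ : Abelianization G) (f : Fun G) (q : Abelianization G) :
    (MonoidAlgebra.of ℤ (Abelianization G) σ • f : Fun G) q = f (σ⁻¹ * q) := by
  show (MonoidAlgebra.lift ℤ (AddMonoid.End (Fun G)) (Abelianization G) (translate G)
    (MonoidAlgebra.of ℤ (Abelianization G) σ) f) q = _
  rw [MonoidAlgebra.lift_of]
  rfl

variable [Finite G]

theorem transfer_commutator_eq_one :
    MonoidHom.transfer (Abelianization.of : ↥(commutator G) →* Abelianization ↥(commutator G)) =
      1 := by
  classical
  let H := commutator G
  let T : H.LeftTransversal := default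
  let s : Abelianization G → G := fun q => T.2.leftQuotientEquiv q
  have hs : ∀ q, Abelianization.of (s q) = q := fun q => T.2.leftQuotientEquiv.symm_apply_apply q
  have hmem : ∀ (x : G) (q : Abelianization G),
      (s q)⁻¹ * x * s ((Abelianization.of x)⁻¹ * q) ∈ H := by
    intro x q
    have h1 : Abelianization.of ((s q)⁻¹ * x * s ((Abelianization.of x)⁻¹ * q)) = 1 := by
      rw [map_mul, map_mul, map_inv, hs, hs]
      group
    exact (QuotientGroup.eq_one_iff _).mp h1
  let h : G → Abelianization G → Derived G := fun x q =>
    Additive.ofMul (Abelianization.of ⟨_, hmem x q⟩)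
  have hh : ∀ x y q, h (x * y) q = h x q + h y ((Abelianization.of x)⁻¹ * q) := by
    intro x y q
    simp only [h, ← ofMul_mul, ← map_mul]
    refine congrArg Additive.ofMul (congrArg _ (Subtype.ext ?_))
    simp only [Subgroup.coe_mul, map_mul, mul_inv_rev, mul_assoc, mul_inv_cancel_left]
  let D : G → Fun G × MonoidAlgebra ℤ (Abelianization G) := fun x =>
    (h x, MonoidAlgebra.of ℤ (Abelianization G) (Abelianization.of x) - 1)
  have hD : ∀ x y, D (x * y) =
      D x + MonoidAlgebra.of ℤ (Abelianization G) (Abelianization.of x) • D y := by
    intro x y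
    refine Prod.ext (funext fun q => ?_) ?_
    · show h (x * y) q = h x q +
        (MonoidAlgebra.of ℤ (Abelianization G) (Abelianization.of x) • (show Fun G from h y) : Fun G) q
      rw [of_smul_apply, hh]
    · simp only [D, Prod.snd_add, Prod.smul_snd, smul_eq_mul, map_mul, mul_sub, mul_one]
      abel
  letI : Fintype (Abelianization G) := Subgroup.fintypeQuotientOfFiniteIndex (H := H)
  refine MonoidHom.ext fun x => ?_
  have key := congrArg Prod.fst (norm_smul_derivation (G := G) D hD
    (LinearMap.snd _ _ _) (fun z => rfl) x)
  rw [Prod.smul_fst, normElt, Finset.sum_smul] at key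
  have key1 : ∑ σ : Abelianization G, h x (σ⁻¹ * 1) = 0 := by
    let ev : Fun G →+ Derived G := { toFun := fun f => f 1, map_zero' := rfl, map_add' := fun _ _ => rfl }
    have key' := congrArg ev key
    rw [map_sum, Prod.fst_zero, map_zero] at key'
    exact (Finset.sum_congr rfl fun σ _ => (of_smul_apply G σ (h x) 1).symm).trans key'
  rw [MonoidHom.transfer_def _ T x, MonoidHom.one_apply]
  unfold Subgroup.leftTransversals.diff
  simp only
  have key2 : Additive.ofMul (∏ σ : Abelianization G,
      (Abelianization.of ⟨_, hmem x (σ⁻¹ * 1)⟩ : Abelianization ↥H)) = 0 := by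
    rw [ofMul_prod]
    exact key1
  rw [ofMul_eq_zero] at key2
  refine Eq.trans (Fintype.prod_equiv (Equiv.inv (Abelianization G)) _ _ fun q => ?_) key2
  refine congrArg _ (Subtype.ext ?_)
  have := Subgroup.smul_apply_eq_smul_apply_inv_smul x T q
  simp only [smul_eq_mul] at this
  simp only [Equiv.inv_apply, inv_inv, mul_one]
  rw [this, mul_assoc]
  rfl

end Cfsg.Agent.H34.PIT
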